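import Cfsg.Agent.Std2B.Defs
import Cfsg.Agent.Mon.BOut

/-! Extension of the chart to the normaliser of `⟨t, z⟩`. -/

set_option autoImplicit false

namespace Cfsg.Agent.Std2B

open Cfsg Cfsg.Spor Cfsg.Agent.TT Cfsg.Agent.LES Cfsg.Agent.Mon Cfsg.Agent.Spor Cfsg.Agent.Spor.Leech Subgroup

section Baby

variable {H X : Type*} [Group H] [Group X] {y : H} {R : Subgroup H}
  {γ : centralizer ({y} : Set H) →* Co2} {φ : leechPerpU → H}

/-- Pulling the data back to a copy of the centraliser. -/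
theorem babyData_pull (d : BabyData y R γ φ) (ι : X →* H) (hi : Function.Injective ι) {x₀ : X}
    (e : ι x₀ = y) (h1 : ∀ x, ι x * y = y * ι x) (h2 : ∀ c, c * y = y * c → ∃ x, ι x = c) :
    ∃ R' γ' φ', BabyData x₀ R' γ' φ' := by
  subst e
  have h3 : ∀ c ∈ R, ∃ x, ι x = c := fun c hc => h2 c (d.lx.z_comm c hc)
  choose φ' hφ using fun v => h3 _ (d.mem v)
  have ev : ∀ {a b}, Eqv (ι x₀) (ι a) (ι b) ↔ Eqv x₀ a b := fun {a b} => by
    rw [Eqv, ← map_mul, hi.eq_iff, hi.eq_iff, Eqv]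
  have cm : ∀ {a b}, ι a * ι b = ι b * ι a ↔ a * b = b * a := fun {a b} => by
    rw [← map_mul, ← map_mul, hi.eq_iff]
  let f : centralizer ({x₀} : Set X) →* centralizer ({ι x₀} : Set H) :=
    (ι.comp (Subgroup.subtype _)).codRestrict _ fun x => mem_centralizer_singleton_iff.2 (h1 x)
  refine ⟨R.comap ι, γ.comp f, φ', ⟨⟨d.lx.z_mem, fun a => d.lx.z_ne (by rw [a, map_one]),
    hi (by rw [map_mul, d.lx.z_sq, map_one]), fun x hx => cm.1 (h1 x), fun a ha b hb => ?_,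
    fun a ha hc => ?_, ?_⟩, fun c hc => d.lx.cent_mem _ fun x hx => ?_, fun c _ x hx => ?_⟩,
    fun x hx => d.o2 (le_O2C (D := (O2C x₀).map ι) ((O2C_isPGroup _).map _) ?_ ?_ ⟨x, hx, rfl⟩), ?_,
    fun g => ?_, fun c => d.ker (f c), fun v => show ι _ ∈ R from hφ v ▸ d.mem v, fun v w => ?_,
    fun x hx => ?_, fun v => ?_, fun c v w hc => ?_⟩
  · exact ev.1 (by rw [map_mul, map_mul]; exact d.lx.comm _ ha _ hb)
  · refine (d.lx.cent _ ha fun b hb => ?_).imp (fun a => hi (by rw [a, map_one])) fun a => hi a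
    obtain ⟨b, rfl⟩ := h3 b hb
    exact cm.2 (hc b hb)
  · obtain ⟨x, hx, a, b⟩ := d.lx.nonab
    obtain ⟨x, rfl⟩ := h3 x hx
    exact ⟨x, hx, fun c => a (by rw [c, map_one]), fun c => b (by rw [c])⟩
  · obtain ⟨x, rfl⟩ := h3 x hx
    exact cm.2 (hc x hx)
  · simpa [mem_comap] using d.lx.norm _ (h1 c) _ hx
  · rintro _ ⟨a, -, rfl⟩; exact h1 a
  · rintro c hc _ ⟨a, ha, rfl⟩
    obtain ⟨c, rfl⟩ := h2 c hc
    exact ⟨_, conj_mem_O2C ha (cm.1 hc), by simp⟩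
  · rw [← d.card, ← card_map_of_injective hi, map_comap_eq_self fun c hc => h3 c hc]
  · obtain ⟨c, rfl⟩ := d.surj g
    obtain ⟨x, hx⟩ := h2 c (MonData.comm_z c)
    exact ⟨⟨x, mem_centralizer_singleton_iff.2 (cm.1 (h1 x))⟩, congrArg γ (Subtype.ext hx)⟩
  · exact ev.1 (by rw [map_mul, hφ, hφ, hφ]; exact d.add v w)
  · exact (d.onto _ hx).imp fun v a => ev.1 (hφ v ▸ a)
  · rw [← ev, hφ, map_one, d.triv]
  · exact ev.1 (by rw [map_mul, map_mul, map_inv, hφ, hφ]; exact d.conj (f c) v w hc)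

theorem no_index_two [Finite H] (d : BabyData y R γ φ) (hc : ∀ c, c * y = y * c) {A : Subgroup H}
    (hy : y ∈ A) (two : ∀ a b, a ∉ A → b ∉ A → a * b ∈ A) (x : H) : x ∈ A := by
  have sq : ∀ c, c * c ∈ A := fun c => (em (c ∈ A)).elim (fun a => mul_mem a a) fun a => two c c a a
  have nm : ∀ c, ∀ a ∈ A, c * a * c⁻¹ ∈ A := fun c a ha => by
    simpa [mul_assoc] using mul_mem (mul_mem (sq (c * a)) (inv_mem ha)) (sq c⁻¹)
  have hR : R ≤ A := by
    obtain ⟨a, ha, b, hb, e⟩ := d.lx.toXS.exists_noncomm_pair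
    have key : ∀ s ∈ R, s ∈ A → ∀ r, s * r ≠ r * s → R ≤ A := fun s h1 h2 r h3 =>
      d.le_of_inv hy (fun c _ => nm c) h1 h2 (fun c => h3 (by simp [c])) fun c => h3 (c ▸ (hc r).symm)
    have ne : a * b ≠ b * a := fun c => d.lx.z_ne (by simpa [c] using e)
    by_cases h1 : a ∈ A
    · exact key a ha h1 b ne
    by_cases h2 : b ∈ A
    · exact key b hb h2 a ne.symm
    exact key _ (mul_mem ha hb) (two a b h1 h2) b fun c => ne (mul_right_cancel (c.trans (mul_assoc _ _ _).symm))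
  have : (A.subgroupOf (centralizer {y})).Normal := ⟨fun a ha c => nm c a ha⟩
  have := BS.simple_Co2
  rcases (Normal.map inferInstance γ d.surj :
    ((A.subgroupOf (centralizer {y})).map γ).Normal).eq_bot_or_eq_top with e | e
  · refine absurd (Co2_normal_two_eq_bot ⊤ fun g => ⟨1, Subtype.ext ?_⟩) top_ne_bot
    obtain ⟨c, hc⟩ := d.surj g
    simpa [hc, pow_two] using e.le (mem_map_of_mem γ (show c * c ∈ A.subgroupOf _ from sq c))
  · obtain ⟨k, hk, e⟩ := e.ge (mem_top (γ ⟨x, mem_centralizer_singleton_iff.2 (hc x)⟩))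
    exact (mul_mem_cancel_left (inv_mem hk)).1 (hR ((d.ker (k⁻¹ * ⟨x, mem_centralizer_singleton_iff.2 (hc x)⟩)).1
      (by rw [map_mul, map_inv, e, inv_mul_cancel])))

end Baby

section Swap

variable {K : Type*} [Group K] {a z n x : K} (e1 : z * z = 1) (e2 : n * z = z * n) (e3 : n * a * n⁻¹ = a * z)
include e1 e2 e3

theorem sw0 : n * (a * z) * n⁻¹ = a := by rw [← conj_mul, e3, conj_eq_of_comm e2, mul_assoc, e1, mul_one]

theorem sw1 : n⁻¹ * a * n⁻¹⁻¹ = a * z := by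
  conv_lhs => rw [← sw0 e1 e2 e3]
  group

theorem sw (e4 : x * a = a * x) (e5 : x * z = z * x) :
    n * x * n⁻¹ * a = a * (n * x * n⁻¹) ∧ n * x * n⁻¹ * z = z * (n * x * n⁻¹) := by
  refine ⟨?_, comm_mul_left (comm_mul_left e2 e5) (comm_inv_left e2)⟩
  rw [← sw0 e1 e2 e3, conj_mul, conj_mul, (Commute.mul_right e4 e5).eq]

theorem dec (hx : x ∈ NS z a) : (x * a = a * x ∧ x * z = z * x) ∨
    ∃ d, (d * a = a * d ∧ d * z = z * d) ∧ x = d * n := by
  obtain ⟨b, b' | b'⟩ := (mem_NS e1).1 hx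
  · exact .inl ⟨comm_of_conj_eq b', b⟩
  · refine .inr ⟨x * n⁻¹, ⟨comm_of_conj_eq ?_, comm_mul_left b (comm_inv_left e2)⟩, by group⟩
    calc _ = x * (n⁻¹ * a * n⁻¹⁻¹) * x⁻¹ := by group
      _ = _ := by rw [sw1 e1 e2 e3, ← conj_mul, b', conj_eq_of_comm b, mul_assoc, e1, mul_one]

end Swap

variable {M : Type} [Group M] [Finite M] {z : M} {Q : Subgroup M} {π : centralizer ({z} : Set M) →* Co1}
  {ψ : leechLattice → M} {G : Type*} [Group G] [Finite G] {j : M → G}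

/-- An automorphism of `D = C(a, z)` fixing `a` and `z` is inner. -/
theorem aut_D_inner (h : If0 z Q π ψ) {D : Subgroup M}
    (hD : ∀ x, x ∈ D ↔ x * ψ leechU = ψ leechU * x ∧ x * z = z * x) (α : D →* D)
    (hα : Function.Injective α) (h1 : ∀ x : D, (x : M) = ψ leechU → α x = x)
    (h2 : ∀ x : D, (x : M) = z → α x = x) : ∃ k : D, ∀ x, α x = k * x * k⁻¹ := by
  have ha : ψ leechU ∈ cA ψ := IsConj.refl _
  let a' : centralizer ({ψ leechU} : Set M) := ⟨ψ leechU, mem_centralizer_singleton_iff.2 rfl⟩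
  have aa := h.mul_self_A ha
  have : (zpowers a').Normal := ⟨fun x ⟨n, e⟩ c => by
    rw [← e, conj_eq_of_comm (Commute.zpow_right (show Commute c a' from Subtype.ext
      (mem_centralizer_singleton_iff.1 c.2)) n).eq]
    exact ⟨n, rfl⟩⟩
  let m := QuotientGroup.mk' (zpowers a')
  have q : InvQuot Q z (ψ leechU) m := ⟨h.mon.lx, h.mon.mem _, aa, h.ne_one_A ha, h.disj ha,
    QuotientGroup.mk'_surjective _, fun x => by
      rw [QuotientGroup.mk'_apply, QuotientGroup.eq_one_iff, mem_zpowers_invol (Subtype.ext aa),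
        Subtype.ext_iff, Subtype.ext_iff]; rfl⟩
  obtain ⟨y, R, γ, φ, d, -⟩ := babyData_of (h.baby ha m q.surj q.ker)
  obtain ⟨T, hT⟩ := (h.xs.isPGroup.comap_subtype (K := centralizer {ψ leechU})).exists_le_sylow
  have xs := q.xs (by rw [h.mon.card]; norm_num)
  obtain ⟨g, hg⟩ := isConj_of_central d.lx (T.mapSurjective q.surj) xs.z_ne (by
    rintro _ ⟨x, hx, rfl⟩
    exact q.comm_iff.2 (mem_centralizer_singleton_iff.1 (h.le_C_of_two q.t_mem q.t_mem (h.cent_one ha q.t_mem)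
      (T.isPGroup'.map (Subgroup.subtype _)) (fun a ha e _ => ⟨⟨a, mem_centralizer_singleton_iff.2 e⟩, hT ha, rfl⟩)
      ⟨x, hx, rfl⟩)))
  let x₀ : centralizer {m ⟨z, q.z_mem⟩} := ⟨_, mem_centralizer_singleton_iff.2 rfl⟩
  have cz : ∀ c, c * x₀ = x₀ * c := fun c => Subtype.ext (mem_centralizer_singleton_iff.1 c.2)
  obtain ⟨R', γ', φ', d'⟩ := babyData_pull d ((MulAut.conj g⁻¹).toMonoidHom.comp (Subgroup.subtype _))
    ((MulAut.conj g⁻¹).injective.comp Subtype.val_injective) (x₀ := x₀) (by simp [x₀, ← hg, mul_assoc])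
    (fun x => by
      have : x * (g * y * g⁻¹) = g * y * g⁻¹ * x := by
        rw [hg]; exact mem_centralizer_singleton_iff.1 x.2
      exact (MulAut.conj g).injective (by simpa [mul_assoc] using this))
    fun c hc => ⟨⟨g * c * g⁻¹, mem_centralizer_singleton_iff.2 (by rw [← hg, conj_mul, conj_mul, hc])⟩,
      by simp [mul_assoc]⟩
  have hle : D ≤ centralizer {ψ leechU} := fun x hx => mem_centralizer_singleton_iff.2 ((hD x).1 hx).1
  let ρ : D →* centralizer {m ⟨z, q.z_mem⟩} := (m.comp (inclusion hle)).codRestrict _ fun x =>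
    mem_centralizer_singleton_iff.2 (q.comm_iff.2 ((hD x).1 x.2).2)
  have ρs : Function.Surjective ρ := fun c => by
    obtain ⟨x, hx⟩ := q.surj c
    exact ⟨⟨x, (hD x).2 ⟨InvQuot.comm_t x, q.comm_iff.1 (hx ▸ mem_centralizer_singleton_iff.1 c.2)⟩⟩,
      Subtype.ext hx⟩
  have ρe : ∀ {x w : D}, ρ x = ρ w ↔ Eqv (ψ leechU) (x : M) w := Subtype.ext_iff.trans q.eq_iff
  let aD : D := ⟨ψ leechU, (hD _).2 ⟨rfl, h.xs.z_comm _ q.t_mem⟩⟩
  let zD : D := ⟨z, (hD _).2 ⟨(h.xs.z_comm _ q.t_mem).symm, rfl⟩⟩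
  have ρa : ρ aD = 1 := Subtype.ext ((q.ker _).2 (.inr rfl))
  have ρk : ∀ x, ρ x = 1 → x = 1 ∨ x = aD := fun x e =>
    ((q.ker _).1 (congrArg Subtype.val e)).imp Subtype.ext Subtype.ext
  let β := ρ.liftOfRightInverse _ (Function.rightInverse_surjInv ρs) ⟨ρ.comp α, fun c hc => by
    rcases ρk c hc with rfl | rfl
    exacts [map_one _, (congrArg ρ (h1 _ rfl)).trans ρa]⟩
  have hβ : ∀ c, β (ρ c) = ρ (α c) := ρ.liftOfRightInverse_comp_apply _ _ _
  have hs : Function.Surjective β := fun c => by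
    obtain ⟨c, rfl⟩ := ρs c
    obtain ⟨c, rfl⟩ := Finite.injective_iff_surjective.1 hα c
    exact ⟨_, hβ c⟩
  obtain ⟨k, -, hk⟩ := d'.inner (α := MulEquiv.ofBijective β (Finite.surjective_iff_bijective.1 hs))
    ((hβ zD).trans (congrArg ρ (h2 _ rfl)))
  obtain ⟨k, rfl⟩ := ρs k
  have ca : ∀ x : D, x * aD = aD * x := fun x => Subtype.ext ((hD x).1 x.2).1
  have h3 : ∀ x, α x = k * x * k⁻¹ ∨ α x = k * x * k⁻¹ * aD := fun x =>
    (ρe.1 ((hβ x).symm.trans ((hk _ (cz _)).trans (by simp)))).imp Subtype.ext Subtype.ext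
  let E := α.eqLocus (MulAut.conj k).toMonoidHom
  have aE : aD ∈ E := (h1 _ rfl).trans (conj_eq_of_comm (ca k)).symm
  refine ⟨k, fun x => ?_⟩
  obtain ⟨w, hw, e⟩ := no_index_two d' cz (A := E.map ρ)
    ⟨zD, (h2 _ rfl).trans (conj_eq_of_comm (Subtype.ext ((hD k).1 k.2).2)).symm, rfl⟩ (fun u v hu hv => by
      obtain ⟨u, rfl⟩ := ρs u
      obtain ⟨v, rfl⟩ := ρs v
      refine ⟨u * v, ?_, map_mul ρ u v⟩
      show α (u * v) = k * (u * v) * k⁻¹
      rw [map_mul, (h3 u).resolve_left fun c => hu ⟨u, c, rfl⟩, (h3 v).resolve_left fun c => hv ⟨v, c, rfl⟩,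
        mul_assoc _ aD, ← mul_assoc aD, ← ca, mul_assoc _ aD, show aD * aD = 1 from Subtype.ext aa, mul_one,
        conj_mul]) (ρ x)
  rcases ρk (w⁻¹ * x) (by rw [map_mul, map_inv, e, inv_mul_cancel]) with e | e
  · exact inv_mul_eq_one.1 e ▸ hw
  · exact (mul_mem_cancel_left (inv_mem hw)).1 (e ▸ aE : w⁻¹ * x ∈ E)

theorem exists_ext (h : If0 z Q π ψ) (c : Ch (ψ leechU) j) {n : G} (h1 : n * j z = j z * n)
    (h2 : n * j (ψ leechU) * n⁻¹ = j (ψ leechU) * j z) : ∃ Θ, Ext z (ψ leechU) j Θ := by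
  classical
  have ha : ψ leechU ∈ cA ψ := IsConj.refl _
  have hQ := h.mon.mem leechU
  have aa := h.mul_self_A ha
  have za := (h.xs.z_comm _ hQ).symm
  generalize hU : ψ leechU = a at c h2 aa za
  have mc := fun {x : M} => (mem_centralizer_singleton_iff (g := a) (k := x)).2
  have zz := (c.sq_iff (mc za)).2 h.mon.z_sq
  have z1 : j z ≠ 1 := fun e => h.xs.z_ne (c.inj _ (mc za) e)
  let D : Subgroup M := centralizer {a} ⊓ centralizer {z}
  have hD : ∀ x, x ∈ D ↔ x * a = a * x ∧ x * z = z * x := fun x => by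
    simp only [D, mem_inf, mem_centralizer_singleton_iff]
  have ex : ∀ x : D, ∃ y : D, j y = n * j x * n⁻¹ := fun x => by
    obtain ⟨e1, e2⟩ := sw zz h1 h2 ((c.comm_iff x.2.1 (mc rfl)).2 ((hD x).1 x.2).1)
      ((c.comm_iff x.2.1 (mc za)).2 ((hD x).1 x.2).2)
    obtain ⟨y, e3, e4⟩ := c.onto _ e1
    exact ⟨⟨y, (hD y).2 ⟨e3, (c.comm_iff (mc e3) (mc za)).1 (e4 ▸ e2)⟩⟩, e4⟩
  choose β hβ using ex
  obtain ⟨m, m1, m2⟩ := h.xs.exists_conj_eq hQ (h.ne_one_A ha) (h.ne_z ha)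
  rw [hU] at m2
  have mz := h.xs.z_comm m m1
  have m3 := sw1 h.mon.z_sq mz m2
  let α : D →* D := MonoidHom.mk' (fun x => ⟨m⁻¹ * β x * m⁻¹⁻¹, (hD _).2 (sw h.mon.z_sq (comm_inv_left mz) m3
    ((hD _).1 (β x).2).1 ((hD _).1 (β x).2).2)⟩) fun x y => Subtype.ext (by
      have : β (x * y) = β x * β y := Subtype.ext ((c.eq_iff (β _).2.1 (β x * β y).2.1).1 (by
        rw [hβ, coe_mul, coe_mul, c.mul _ x.2.1 _ y.2.1, c.mul _ (β x).2.1 _ (β y).2.1, hβ, hβ, conj_mul]))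
      simp only [this, coe_mul, conj_mul])
  have hα : ∀ x, (α x : M) = m⁻¹ * β x * m⁻¹⁻¹ := fun _ => rfl
  obtain ⟨k, hk⟩ := aut_D_inner h (D := D) (hU ▸ hD) α ((injective_iff_map_eq_one _).2 fun x e => by
      have e1 : (β x : M) = 1 := conj_eq_one_iff.1 ((hα x).symm.trans (congrArg Subtype.val e))
      exact Subtype.ext (c.inj _ x.2.1 (conj_eq_one_iff.1 (by rw [← hβ, e1, c.one]))))
    (fun x e => Subtype.ext (by
      rw [hα, (c.eq_iff (β x).2.1 (mc (comm_mul_left rfl za))).1 (by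
        rw [hβ, e, hU, h2, c.mul _ (mc rfl) _ (mc za)]), e, hU, ← m2]; group))
    fun x e => Subtype.ext (by
      rw [hα, (c.eq_iff (β x).2.1 (mc za)).1 (by rw [hβ, e, conj_eq_of_comm h1]), e,
        conj_eq_of_comm (comm_inv_left mz)])
  have act : ∀ x ∈ D, n * (j k)⁻¹ * j x * (n * (j k)⁻¹)⁻¹ = j (m * x * m⁻¹) := fun x hx => by
    have e1 := congrArg Subtype.val (hk (k⁻¹ * ⟨x, hx⟩ * k))
    have e2 := hβ (k⁻¹ * ⟨x, hx⟩ * k)
    rw [hα] at e1
    have e3 : m⁻¹ * β (k⁻¹ * ⟨x, hx⟩ * k) * m⁻¹⁻¹ = x := by rw [e1]; simp [mul_assoc]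
    rw [show (β (k⁻¹ * ⟨x, hx⟩ * k) : M) = m * x * m⁻¹ by
      generalize (β (k⁻¹ * ⟨x, hx⟩ * k) : M) = w at e3
      rw [← e3]; group] at e2
    rw [e2, coe_mul, coe_mul, c.mul _ (mul_mem k⁻¹.2.1 hx.1) _ k.2.1, c.mul _ k⁻¹.2.1 _ hx.1, coe_inv,
      c.inv k.2.1]
    group
  generalize n * (j k)⁻¹ = n at act
  clear hk hα α hβ β h1 h2 k
  have aD : a ∈ D := (hD a).2 ⟨rfl, za.symm⟩
  have zD : z ∈ D := (hD z).2 ⟨za, rfl⟩
  have cD : ∀ x ∈ D, m * x * m⁻¹ ∈ D := fun x hx =>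
    (hD _).2 (sw h.mon.z_sq mz m2 ((hD x).1 hx).1 ((hD x).1 hx).2)
  have mm : ∀ x ∈ D, m * m * x * (m * m)⁻¹ = x := fun x hx => by
    rcases h.xs.sq m1 with e | e <;> rw [e]
    exacts [by simp, conj_eq_of_comm ((hD x).1 hx).2.symm]
  have n2 : ∀ x ∈ D, n * n * j x = j x * (n * n) := fun x hx => comm_of_conj_eq (by
    conv_rhs => rw [← mm x hx, show m * m * x * (m * m)⁻¹ = m * (m * x * m⁻¹) * m⁻¹ by group,
      ← act _ (cD x hx), ← act x hx]
    group)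
  obtain ⟨e, e1, e2⟩ := c.onto _ (n2 a aD)
  have e3 : ∀ x ∈ D, e * x = x * e := fun x hx => (c.comm_iff (mc e1) hx.1).1 (e2 ▸ n2 x hx)
  have eD : e ∈ D := (hD e).2 ⟨e1, e3 z zD⟩
  have e4 : m * e * m⁻¹ = e := (c.eq_iff (cD e eD).1 eD.1).1 (by rw [← act e eD, e2]; group)
  have e5 : e = 1 ∨ e = z := by
    rcases mem_four h.mon.lx (hU ▸ hQ) aa (e3 z zD) fun q hq a =>
      (e3 q ((hD q).2 ⟨a, h.xs.z_comm q hq⟩)).symm with a | a | a | a
    · exact .inl a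
    · exact .inr a
    · exact absurd (mul_eq_left.1 (by rw [← m2, ← a, e4])) h.xs.z_ne
    · rw [a, ← conj_mul, m2, conj_eq_of_comm mz, mul_left_inj] at e4
      exact absurd (mul_eq_left.1 e4) h.xs.z_ne
  obtain ⟨m, mz, m2, act, m4⟩ : ∃ m : M, m * z = z * m ∧ m * a * m⁻¹ = a * z ∧
      (∀ x ∈ D, n * j x * n⁻¹ = j (m * x * m⁻¹)) ∧ m * m = e := by
    by_cases c' : m * m = e
    · exact ⟨m, mz, m2, act, c'⟩
    have : ∀ x ∈ D, m * a * x * (m * a)⁻¹ = m * x * m⁻¹ := fun x hx => by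
      rw [mul_assoc m, ← ((hD x).1 hx).1]; group
    refine ⟨m * a, comm_mul_left mz za.symm, (this a aD).trans m2, fun x hx => this x hx ▸ act x hx, ?_⟩
    rw [show m * a * (m * a) = m * m * (m⁻¹ * a * m⁻¹⁻¹) * a by group, m3, mul_assoc, mul_assoc a, za,
      ← mul_assoc a, aa, one_mul]
    rcases h.xs.sq m1 with a | a <;> rcases e5 with b | b <;> simp_all [h.mon.z_sq]
  have cD : ∀ x ∈ D, m * x * m⁻¹ ∈ D := fun x hx =>
    (hD _).2 (sw h.mon.z_sq mz m2 ((hD x).1 hx).1 ((hD x).1 hx).2)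
  have nz : n * j z = j z * n := comm_of_conj_eq (by rw [act z zD, conj_eq_of_comm mz])
  have na : n * j a * n⁻¹ = j a * j z := by rw [act a aD, m2, c.mul _ aD.1 _ zD.1]
  have ma : ∀ d ∈ D, ¬ d * m * a = a * (d * m) := fun d hd e => h.xs.z_ne (by
    rw [← mul_assoc, ← ((hD d).1 hd).1, mul_assoc, mul_assoc, mul_right_inj] at e
    exact mul_eq_left.1 (m2.symm.trans (conj_eq_of_comm e)))
  let Θ : M → G := fun x => if x * a = a * x then j x else j (x * m⁻¹) * n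
  have t1 : ∀ x ∈ D, Θ x = j x := fun x hx => if_pos ((hD x).1 hx).1
  have t2 : ∀ x ∈ D, Θ (x * m) = j x * n := fun x hx => by simp [Θ, ma x hx]
  have dM : ∀ x ∈ NS z a, x ∈ D ∨ ∃ d ∈ D, x = d * m := fun x hx =>
    (dec h.mon.z_sq mz m2 hx).imp (hD x).2 fun ⟨d, a, b⟩ => ⟨d, (hD d).2 a, b⟩
  refine ⟨Θ, ⟨fun x hx y hy => ?_, fun x hx e => ?_⟩, fun x a b => t1 x ((hD x).2 ⟨a, b⟩), fun g hg => ?_⟩
  · rcases dM x hx with a | ⟨x, a, rfl⟩ <;> rcases dM y hy with b | ⟨y, b, rfl⟩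
    · rw [t1 _ a, t1 _ b, t1 _ (mul_mem a b), c.mul _ a.1 _ b.1]
    · rw [← mul_assoc, t1 _ a, t2 _ b, t2 _ (mul_mem a b), c.mul _ a.1 _ b.1, mul_assoc]
    · rw [show x * m * y = x * (m * y * m⁻¹) * m by group, t2 _ a, t1 _ b, t2 _ (mul_mem a (cD y b)),
        c.mul _ a.1 _ (cD y b).1, ← act y b]
      group
    · rw [show x * m * (y * m) = x * (m * y * m⁻¹) * (m * m) by group, m4, t2 _ a, t2 _ b,
        t1 _ (mul_mem (mul_mem a (cD y b)) eD), c.mul _ (mul_mem a (cD y b)).1 _ eD.1,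
        c.mul _ a.1 _ (cD y b).1, ← act y b, e2]
      group
  · rcases dM x hx with b | ⟨x, b, rfl⟩
    · exact c.inj x b.1 (t1 x b ▸ e)
    · rw [t2 x b, mul_eq_one_iff_inv_eq, ← c.inv b.1] at e
      rw [← e, ← c.conj (inv_mem b.1) aD.1, conj_eq_of_comm (comm_inv_left ((hD x).1 b).1)] at na
      exact absurd (mul_eq_left.1 na.symm) z1
  · have key : ∀ g, g * j a = j a * g ∧ g * j z = j z * g → ∃ x ∈ D, j x = g := fun g hg => by
      obtain ⟨x, b1, rfl⟩ := c.onto g hg.1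
      exact ⟨x, (hD x).2 ⟨b1, (c.comm_iff (mc b1) zD.1).1 hg.2⟩, rfl⟩
    have hN : ∀ x ∈ D, x ∈ NS z a := fun x hx => mem_NS_of_comm ((hD x).1 hx).1 ((hD x).1 hx).2
    rcases dec zz nz na hg with b | ⟨d, b, rfl⟩
    · obtain ⟨x, b1, rfl⟩ := key g b
      exact ⟨x, hN x b1, t1 x b1⟩
    · obtain ⟨x, b1, rfl⟩ := key d b
      exact ⟨x * m, mul_mem (hN x b1) ((mem_NS h.mon.z_sq).2 ⟨mz, .inr m2⟩), t2 x b1⟩

end Cfsg.Agent.Std2B
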