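import Cfsg.Agent.Std2B.Defs
import Cfsg.Agent.MonU.BrA


/-! Leech lattice lemmas. -/

set_option autoImplicit false

namespace Cfsg.Agent.Std2B

open Cfsg Cfsg.Spor Cfsg.Agent.TT Cfsg.Agent.LES Cfsg.Agent.Mon Cfsg.Agent.Spor Cfsg.Agent.Spor.Leech Subgroup MonU.Br

theorem exists_cfg {r u : leechLattice} (hr : sqNorm (r : GolayPt → ℤ) = 32) (hu : sqNorm (u : GolayPt → ℤ) = 32)
    (hd : dotInt (r : GolayPt → ℤ) (u : GolayPt → ℤ) = 0) : ∃ u₁ u₃ : leechLattice,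
    sqNorm (u₁ : GolayPt → ℤ) = 32 ∧ sqNorm (u₃ : GolayPt → ℤ) = 32 ∧
    dotInt (r : GolayPt → ℤ) (u₁ : GolayPt → ℤ) = 0 ∧ dotInt (r : GolayPt → ℤ) (u₃ : GolayPt → ℤ) = 0 ∧
    dotInt (u : GolayPt → ℤ) (u₁ : GolayPt → ℤ) = 0 ∧ (∃ y, r + u + u₁ - u₃ = y + y) ∧
    ∀ g : Co0, (∀ v : leechLattice, dotInt (v : GolayPt → ℤ) (r : GolayPt → ℤ) % 16 = 0 →
      dotInt (v : GolayPt → ℤ) (u : GolayPt → ℤ) % 16 = 0 → dotInt (v : GolayPt → ℤ) (u₁ : GolayPt → ℤ) % 16 = 0 →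
      ∃ y, g • v - v = y + y) → g = 1 ∨ g = negOne := by
  obtain ⟨k, k1, k2⟩ := exists_std_pair hr hu hd
  obtain rfl : r = k⁻¹ • leechU := by rw [← k1, inv_smul_smul]
  obtain rfl : u = k⁻¹ • leechU' := by rw [← k2, inv_smul_smul]
  refine ⟨k⁻¹ • v4 (some 1) (some 2) true, k⁻¹ • v4 (some 1) (some 2) false, ?_, ?_, ?_, ?_, ?_,
    ⟨k⁻¹ • v4 none (some 2) true, ?_⟩, fun g hg => ?_⟩
  iterate 2 rw [sqNorm_smul]; decide
  iterate 3 rw [dotInt_smul]; decide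
  · rw [← smul_add, ← smul_add, ← smul_sub, ← smul_add]
    congr 1; decide
  have := pm_one (g := k * g * k⁻¹) fun i j hij s => by
    have h4 : ∀ p, (v4 i j s : GolayPt → ℤ) p % 4 = 0 := fun p => by rw [v4_apply]; omega
    obtain ⟨y, hy⟩ := hg (k⁻¹ • v4 i j s) (by rw [dotInt_smul, dot_leechU]; have := h4 none; have := h4 (some 0); omega)
      (by rw [dotInt_smul, dot_leechU']; have := h4 none; have := h4 (some 0); omega)
      (by rw [dotInt_smul, dot_v4]; have := h4 (some 1); have := h4 (some 2); simp only [if_true]; omega)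
    refine eq_or_neg_of_congr (y := k • y) (by rw [sqNorm_smul, norm_v4 hij]; norm_num) (by rw [norm_v4 hij]; norm_num) ?_
    rw [← smul_add, ← hy, smul_sub, smul_inv_smul, mul_smul, mul_smul]
  rcases this with e | e
  · exact .inl (by simpa using e)
  · right
    rw [mul_inv_eq_iff_eq_mul, ← negOne_comm, mul_right_inj] at e
    exact e

theorem top_of_orth {Γ : Subgroup Co0} (h0 : negOne ∈ Γ) (h1 : ∀ g : Co0, g • leechU = leechU → g ∈ Γ)
    (h2 : ∀ u : leechLattice, sqNorm (u : GolayPt → ℤ) = 32 →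
      dotInt (leechU : GolayPt → ℤ) (u : GolayPt → ℤ) = 0 → ∃ g ∈ Γ, g • leechU = u) : Γ = ⊤ := by
  have k1 : ∀ {x y : leechLattice}, (∃ g ∈ Γ, g • leechU = x) → sqNorm (y : GolayPt → ℤ) = 32 →
      dotInt (x : GolayPt → ℤ) (y : GolayPt → ℤ) = 0 → ∃ g ∈ Γ, g • leechU = y := by
    rintro _ y ⟨g, hg, rfl⟩ hy hd
    obtain ⟨k, hk, e⟩ := h2 (g⁻¹ • y) (by rw [sqNorm_smul, hy]) (by rw [← dotInt_smul g, smul_inv_smul, hd])
    exact ⟨g * k, mul_mem hg hk, by rw [mul_smul, e, smul_inv_smul]⟩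
  refine eq_top_iff.2 fun g _ => ?_
  obtain ⟨w, w1, w2, w3⟩ := exists_orth_on (x := (g • leechU : leechLattice)) (by rw [sqNorm_smul, sqNorm_leechU]; norm_num)
    ({none, some 0} : Finset GolayPt)ᶜ (by decide)
  obtain ⟨k, hk, e⟩ := k1 (h2 w w1 (w3 _ (by decide))) ((sqNorm_smul g _).trans sqNorm_leechU) (by rw [dotInt_comm, w2])
  exact (mul_mem_cancel_left (inv_mem hk)).1 (h1 (k⁻¹ * g) (by rw [mul_smul, ← e, inv_smul_smul]))

end Cfsg.Agent.Std2B
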